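import Cfsg.Agent.H4.Triality.ProperImage
import Cfsg.Agent.H4.Coset.PlusGraph
import Cfsg.Agent.H62.ConformalPlusMinus

/-!
Field automorphisms of prime order of `PΩ⁺(2m)`, `m ≥ 4`: centraliser in the inner diagonal group
and the splitting of their class.
-/

set_option autoImplicit false

namespace Cfsg.Agent.H4

open QuadraticMap hiding sq
open Module
open Cfsg.Agent.H5 (orth refl dick spin sqc orth_map orth_mul_apply)

/-- Conjugate elements have conjugate centralisers in a normal subgroup. -/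
theorem nonempty_inf_centralizer_conj {X : Type*} [Group X] (H : Subgroup X) [H.Normal] (a x : X) :
    Nonempty (↥(H ⊓ Subgroup.centralizer {x}) ≃* ↥(H ⊓ Subgroup.centralizer {a * x * a⁻¹})) := by
  have hmap : (H ⊓ Subgroup.centralizer {x}).map (MulAut.conj a).toMonoidHom =
      H ⊓ Subgroup.centralizer {a * x * a⁻¹} := by
    have hH : H.map (MulAut.conj a).toMonoidHom = H := Subgroup.Normal.map_conj_eq H a
    rw [Subgroup.map_inf _ _ _ (MulAut.conj a).injective, hH]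
    congr 1
    ext y
    simp only [Subgroup.mem_map, MulEquiv.coe_toMonoidHom, MulAut.conj_apply,
      Subgroup.mem_centralizer_iff, Set.mem_singleton_iff, forall_eq]
    constructor
    · rintro ⟨z, hz, rfl⟩
      calc a * x * a⁻¹ * (a * z * a⁻¹) = a * (x * z) * a⁻¹ := by group
        _ = a * (z * x) * a⁻¹ := by rw [hz]
        _ = _ := by group
    · intro hy
      refine ⟨a⁻¹ * y * a, ?_, by group⟩
      calc x * (a⁻¹ * y * a) = a⁻¹ * (a * x * a⁻¹ * y) * a := by group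
        _ = a⁻¹ * (y * (a * x * a⁻¹)) * a := by rw [hy]
        _ = _ := by group
  exact ⟨(Subgroup.equivMapOfInjective _ (MulAut.conj a).toMonoidHom (MulAut.conj a).injective).trans
    (MulEquiv.subgroupCongr hmap)⟩

theorem formHyp_qPlus' {F : Type*} [Field F] [Fintype F] {m : ℕ} (hm : 4 ≤ m) :
    FormHyp (qPlus m F) := by
  have hr : finrank F (Fin m ⊕ Fin m → F) = 2 * m := by simp; ring
  exact ⟨qPlus_nondegenerate m, by omega, fun _ => ⟨m, by omega⟩⟩

theorem plus_field_prime {F : Type*} [Field F] [Fintype F] {p f : ℕ} [Fact p.Prime]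
    (hF : Fintype.card F = p ^ f) (hf : 1 ≤ f) {m : ℕ} (hm : 4 ≤ m)
    (x : MulAut (Cfsg.POmega F (Cfsg.quadFormPlus m F)))
    (hx : Cfsg.IsFieldAutClassPOmega (Cfsg.quadFormPlus m F) x) {r : ℕ} (hr : r.Prime)
    (hxr : orderOf x = r) (F₀ : Type*) [Field F₀] [Fintype F₀]
    (hF₀ : Fintype.card F₀ = p ^ (f / r)) :
    r ∣ f ∧ Nonempty (↥(Cfsg.inndiagPOmegaPlus m F ⊓ Subgroup.centralizer {x}) ≃*
        ↥(Cfsg.inndiagPOmegaPlus m F₀)) ∧
      ((Odd r ∨ p = 2) → Cfsg.splitClassCount (Cfsg.inndiagPOmegaPlus m F)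
        (Cfsg.Inn (Cfsg.POmega F (Cfsg.quadFormPlus m F))) x = 1) ∧
      ((r = 2 ∧ p ≠ 2 ∧ Odd m ∧ p ^ (f / 2) % 4 = 1) →
        Cfsg.splitClassCount (Cfsg.inndiagPOmegaPlus m F)
          (Cfsg.Inn (Cfsg.POmega F (Cfsg.quadFormPlus m F))) x = 2) ∧
      ((r = 2 ∧ p ≠ 2 ∧ ¬ (Odd m ∧ p ^ (f / 2) % 4 = 1)) →
        Cfsg.splitClassCount (Cfsg.inndiagPOmegaPlus m F)
          (Cfsg.Inn (Cfsg.POmega F (Cfsg.quadFormPlus m F))) x = 4) := by
  classical
  haveI : Finite (Fin m ⊕ Fin m → F) := Pi.finite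
  haveI : Finite (Fin m ⊕ Fin m → F₀) := Pi.finite
  have h3 : 3 ≤ m := by omega
  have hE := evenForm_qPlus (F := F) h3
  have hEK := evenForm_qPlus (F := F₀) h3
  haveI := hE.nontrivial
  haveI := hEK.nontrivial
  have hh := formHyp_qPlus' (F := F) hm
  have hhK := formHyp_qPlus' (F := F₀) hm
  obtain ⟨α, φ, σ, -, hφ, hα⟩ := hx
  rw [fieldAutOf_iff _ (coe_qPlus m) (qPlus_rational σ)] at hφ
  rw [hφ] at hα
  set S := indHom (qPlus m F) (coe_qPlus m) (stdSigma (qPlus m F) (qPlus_rational σ)) with hS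
  have hσ : orderOf σ = r := by
    rw [← orderOf_stdSigma (qPlus m F) (coe_qPlus m) hh (qPlus_rational σ), ← hS, ← hα,
      ← MulAut.conj_apply, MulEquiv.orderOf_eq, hxr]
  obtain ⟨hdvd, e, he, hcard⟩ := exists_embedding_of_card hF σ hσ hr F₀ hF₀
  haveI := properImage_plus_normal (F := F) hm
  have hND := inn_le_properImage (coe_qPlus m) hh hE
  rw [H62.Conformal.inndiag_plus_eq' h3, H62.Conformal.inndiag_plus_eq' (F := F₀) h3,
    ← splitClassCount_conj hND α x, hα]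
  obtain ⟨E⟩ := even_centralizer (coe_qPlus m) hh hE hEK he (qPlus_base e) (qPlus_rational σ)
    (coe_qPlus m) hhK
  obtain ⟨E'⟩ := nonempty_inf_centralizer_conj (properImage (coe_qPlus m) hE) α x
  rw [hα] at E'
  have hp2 : (2 : F) = 0 ↔ p = 2 := two_eq_zero_iff hf hF
  refine ⟨hdvd, ⟨E'.trans E⟩, fun h => ?_, ?_⟩
  · exact even_split_one (coe_qPlus m) hh hE hEK he (qPlus_base e) (qPlus_rational σ)
      (h.imp (fun h => hσ.symm ▸ h) hp2.2) (fun c hc => by rw [similMults_qPlus]; exact hc)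
  suffices hkey : r = 2 → p ≠ 2 →
      (Odd m ∧ p ^ (f / 2) % 4 = 1 → Cfsg.splitClassCount (properImage (coe_qPlus m) hE)
          (Cfsg.Inn (Cfsg.POmega F (Cfsg.quadFormPlus m F))) S = 2) ∧
      (¬ (Odd m ∧ p ^ (f / 2) % 4 = 1) → Cfsg.splitClassCount (properImage (coe_qPlus m) hE)
          (Cfsg.Inn (Cfsg.POmega F (Cfsg.quadFormPlus m F))) S = 4) from
    ⟨fun ⟨h1, h2, h⟩ => (hkey h1 h2).1 h, fun ⟨h1, h2, h⟩ => (hkey h1 h2).2 h⟩
  intro hr2 hp
  subst hr2
  have h2 : (2 : F) ≠ 0 := fun h => hp (hp2.1 h)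
  have h2K : (2 : F₀) ≠ 0 := two_ne_zero_of_embedding (e := e) h2
  rw [← hF₀]
  have hsq := fun a : F₀ => isSquare_map_of_two (e := e) hcard a
  obtain ⟨c, hc⟩ := H5.exists_not_isSquare (F := F₀) h2K
  have hc0 : c ≠ 0 := fun h => hc (h ▸ IsSquare.zero)
  obtain ⟨t, ht⟩ := hsq c
  have ht0 : t ≠ 0 := fun h => (map_ne_zero e).2 hc0 (by rw [ht, h, mul_zero])
  have hδp := plusScale_proper (F := F₀) h3 (Units.mk0 c hc0)
  let δ : linSim (qPlus m F₀) := ⟨plusScale F₀ m (Units.mk0 c hc0), hδp.1⟩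
  have hδm : simMult δ.1 = c := simMult_eq hEK.exists_ne fun v => by
    rw [simSigma_linear δ.2]
    exact qPlus_diagMap (c := c) _ _ (fun _ => by rw [Units.val_one, mul_one]; rfl) v
  have hbase : baseSim (qPlus_base e) δ = ⟨plusScale F m (Units.mk0 (e c) ((map_ne_zero e).2 hc0)),
      (diagMap F m _ _).map_smul⟩ := linSim_ext (e := e) fun z => by
    rw [baseSim_apply]
    funext i
    rw [plusScale_apply]
    change e ((plusScale F₀ m (Units.mk0 c hc0) : Equiv.Perm _) z i) = _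
    rw [plusScale_apply]
    rcases i with i | i <;> simp [baseVec]
  set k := diagOrth F m fun _ => Units.mk0 t ht0
  have hspin : spin (qPlus m F) k = sqc t ^ m := by
    rw [(diagOrth_invariants h3 _).2, ← sqc_pow ht0]
    simp
  obtain ⟨h4, h2'⟩ := even_split_two (coe_qPlus m) hh hE hEK he (qPlus_base e) (qPlus_rational σ)
    h2 hsq (fun d hd => by rw [similMults_qPlus]; exact hd) δ
    ((mem_properSim hEK (g := δ)).1 hδp) (by rw [hδm]; exact hc) k (s := t) fun v => funext fun i => by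
      rw [hbase, plusScale_apply, Pi.smul_apply, diagOrth_apply, smul_eq_mul]
      rcases i with i | i <;> simp [ht, mul_assoc, ht0]
  rw [hspin] at h4 h2'
  have hiff := isSquare_sqrt_iff hcard h2 hc ht.symm
  have hoddK : Fintype.card F₀ % 2 = 1 := FiniteField.odd_card_of_char_ne_two fun h => h2K (by
    haveI := ringChar.of_eq h; exact CharTwo.two_eq_zero)
  refine ⟨fun ⟨ho, hq⟩ => h2' ?_, fun hn => h4 ?_⟩
  · rw [H5.sqc_eq_neg_one_iff.2 (fun hs => by have := hiff.1 hs; omega), ho.neg_one_pow]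
  · by_cases hs : IsSquare t
    · rw [H5.sqc_eq_one_iff.2 hs, one_pow]
    · rw [H5.sqc_eq_neg_one_iff.2 hs]
      exact (Nat.not_odd_iff_even.1 fun ho => hn ⟨ho, by
        have : Fintype.card F₀ % 4 ≠ 3 := fun h => hs (hiff.2 h)
        omega⟩).neg_one_pow

end Cfsg.Agent.H4
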