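import Cfsg.Agent.H4.Triality.Classes
import Cfsg.Agent.H4.Triality.OutPlus
import Cfsg.Agent.H4.Coset.Plus

/-!
The group of proper similarities of `PΩ⁺(2m)`, `m ≥ 4`, is normal among all automorphisms; for
`m = 4` triality permutes the components of the related triples, whose first components exhaust
the proper similarities.
-/

set_option autoImplicit false

namespace Cfsg.Agent.H4

open QuadraticMap hiding sq
open Module
open Cfsg.Agent.H5 (orth refl dick spin sqc orth_map orth_mul_apply)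

variable {F : Type*} [Field F] [Fintype F]

/-- The standard similarity `x ↦ a x`, `y ↦ y` is proper. -/
theorem plusScale_proper {m : ℕ} (hm : 3 ≤ m) (a : Fˣ) :
    plusScale F m a ∈ properSim (evenForm_qPlus (F := F) hm) := by
  haveI : Finite (Fin m ⊕ Fin m → F) := Pi.finite
  have hE := evenForm_qPlus (F := F) hm
  haveI := hE.nontrivial
  have hl : plusScale F m a ∈ linSim (qPlus m F) := (diagMap F m (fun _ => a) fun _ => 1).map_smul
  refine (mem_properSim hE (g := ⟨_, hl⟩)).2 ?_
  by_cases h2 : (2 : F) = 0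
  · obtain ⟨s, hs⟩ := isSquare_of_two h2 (a : F)
    have hs0 : s ≠ 0 := fun h => a.ne_zero (by rw [hs, h, mul_zero])
    refine (isProper_smul_iff hE ⟨_, hl⟩ (diagOrth F m fun _ => Units.mk0 s hs0) (s := s)
      fun v => funext fun i => ?_).2 (diagOrth_invariants hm _).1
    rw [plusScale_apply, Pi.smul_apply, diagOrth_apply, smul_eq_mul]
    rcases i with i | i <;> simp [hs, hs0, mul_assoc]
  · refine ⟨fun _ => ?_, fun h => absurd h h2⟩
    have hc : simMult (plusScale F m a) = (a : F) := simMult_eq hE.exists_ne fun v => by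
      rw [simSigma_linear hl]
      exact qPlus_diagMap (c := (a : F)) _ _ (fun _ => by rw [Units.val_one, mul_one]) v
    rw [hc, show (linSimEquiv (⟨_, hl⟩ : linSim (qPlus m F)) : (Fin m ⊕ Fin m → F) →ₗ[F] _) =
      Matrix.toLin' (Matrix.diagonal (Sum.elim (fun _ : Fin m => (a : F)) fun _ : Fin m => (1 : F))) from
      LinearMap.ext fun v => funext fun i => by
        rw [LinearEquiv.coe_coe, linSimEquiv_apply, Matrix.toLin'_apply, Matrix.mulVec_diagonal]
        exact plusScale_apply a v i,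
      LinearMap.det_toLin', Matrix.det_diagonal]
    simp

namespace Oct

/-- The evenness of the norm. -/
theorem hE4 : EvenForm (qPlus 4 F) 4 := evenForm_qPlus (by norm_num)

/-- An element of given norm acting diagonally. -/
def scaleElt (c : F) : O F := Sum.elim ![c, 0, 0, 0] ![1, 0, 0, 0]

theorem qPlus_scaleElt (c : F) : qPlus 4 F (scaleElt c) = c := by simp [scaleElt, qPlus_four]

theorem lSim_scaleElt (c : Fˣ) (h : qPlus 4 F (scaleElt (c : F)) ≠ 0) :
    lSim (scaleElt (c : F)) h = plusScale F 4 c := by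
  refine sim_ext fun x => funext fun i => ?_
  rw [app_lSim, app, plusScale_apply]
  rcases i with i | i <;> fin_cases i <;> simp [mul, scaleElt]

theorem bSim_proper (u : O F) (hu : qPlus 4 F u ≠ 0) : bSim u hu ∈ properSim (hE4 (F := F)) := by
  refine smul_mem_properSim hE4 ((orthToSim_mem_properSim_iff hE4
    (refl (qPlus 4 F) u * refl (qPlus 4 F) (one : O F))).2 ?_) (d := qPlus 4 F u) (bSim_eq u hu)
  rw [hE4.dick_hom, H5.dick_refl qPlus_four_nondeg hu,
    H5.dick_refl qPlus_four_nondeg (by rw [qPlus_one]; exact one_ne_zero)]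
  decide

theorem lSim_proper (u : O F) (hu : qPlus 4 F u ≠ 0) : lSim u hu ∈ properSim (hE4 (F := F)) := by
  obtain ⟨c, hc⟩ : ∃ c : Fˣ, (c : F) = qPlus 4 F u := ⟨Units.mk0 _ hu, rfl⟩
  have hv : qPlus 4 F (scaleElt (c : F)) ≠ 0 := by rw [qPlus_scaleElt]; exact c.ne_zero
  set v : O F := scaleElt (c : F) with hvdef
  have h1 : qPlus 4 F (one : O F) ≠ 0 := by rw [qPlus_one]; exact one_ne_zero
  set k : orth (qPlus 4 F) := refl _ u * refl _ (one : O F) * (refl _ v * refl _ (one : O F))⁻¹ with hk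
  have hkΩ : k ∈ commutator (orth (qPlus 4 F)) := by
    rw [H5.mem_commutator_iff qPlus_four_nondeg hE4.std]
    have hkuv : k = refl _ u * refl _ v := by
      rw [hk, mul_inv_rev, H5.refl_inv, H5.refl_inv, mul_assoc, ← mul_assoc (refl _ (one : O F)),
        show refl (qPlus 4 F) (one : O F) * refl _ (one : O F) = 1 by
          conv_lhs => arg 2; rw [← H5.refl_inv]
          exact mul_inv_cancel _, _root_.one_mul]
    rw [hkuv, hE4.dick_hom, H5.dick_refl qPlus_four_nondeg hu, H5.dick_refl qPlus_four_nondeg hv,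
      map_mul, H5.spin_refl hu, H5.spin_refl hv, hvdef, qPlus_scaleElt, hc,
      ← H5.sqc_mul hu hu, H5.sqc_eq_one_iff.2 ⟨_, rfl⟩]
    exact ⟨by decide, rfl⟩
  let t : ∀ w : O F, qPlus 4 F w ≠ 0 → triples F := fun w hw =>
    ⟨(bSim w hw, lSim w hw, rSim w hw), Subgroup.subset_closure ⟨w, hw, Or.inl rfl⟩⟩
  have hact : act (t u hu * (t v hv)⁻¹).1.1 = MulAut.conj (piQ (qPlus 4 F) ⟨k, hkΩ⟩) := by
    rw [← simHom_orthToSim]
    change act (bSim u hu * (bSim v hv)⁻¹) = act (orthToSim _ k)
    rw [map_mul, map_inv, act_of_smul (g := bSim u hu)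
        (g' := orthToSim _ (refl _ u * refl _ (one : O F))) (bSim_eq u hu),
      act_of_smul (g := bSim v hv)
        (g' := orthToSim _ (refl _ v * refl _ (one : O F))) (bSim_eq v hv), ← map_inv, ← map_mul,
      ← map_inv, ← map_mul]
  have h2 := tau_conj (t u hu * (t v hv)⁻¹)
  rw [hact, ← conj_apply_aut] at h2
  obtain ⟨k', hk'⟩ := QuotientGroup.mk'_surjective _ (tau (piQ (qPlus 4 F) ⟨k, hkΩ⟩))
  rw [← hk', show QuotientGroup.mk' _ k' = piQ (qPlus 4 F) k' from rfl, ← simHom_orthToSim] at h2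
  change act (orthToSim _ (k' : orth (qPlus 4 F))) = act (lSim u hu * (lSim v hv)⁻¹) at h2
  obtain ⟨d, hd⟩ := (act_eq_one_iff ((orthToSim _ (k' : orth (qPlus 4 F)))⁻¹ *
    (lSim u hu * (lSim v hv)⁻¹))).1 (by rw [map_mul, map_inv, h2, inv_mul_cancel])
  have hk'p : orthToSim _ (k' : orth (qPlus 4 F)) ∈ properSim (hE4 (F := F)) :=
    (orthToSim_mem_properSim_iff hE4 _).2 ((H5.mem_commutator_iff qPlus_four_nondeg hE4.std).1 k'.2).1
  have hp : lSim u hu * (lSim v hv)⁻¹ ∈ properSim (hE4 (F := F)) := by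
    have := mul_mem hk'p (smul_mem_properSim hE4 (one_mem _)
      (g' := (orthToSim _ (k' : orth (qPlus 4 F)))⁻¹ * (lSim u hu * (lSim v hv)⁻¹)) (d := d) hd)
    rwa [mul_inv_cancel_left] at this
  have hvp : lSim v hv ∈ properSim (hE4 (F := F)) := by
    rw [lSim_scaleElt c hv]; exact plusScale_proper (by norm_num) c
  simpa using mul_mem hp hvp

theorem rSim_proper (u : O F) (hu : qPlus 4 F u ≠ 0) : rSim u hu ∈ properSim (hE4 (F := F)) := by
  rw [show rSim u hu = cSim * lSim (conj u) (conj_ne hu) * cSim⁻¹ by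
    rw [cSim_lSim, rSim_conj_conj u hu]]
  exact (properSim_normal hE4 formHyp_qPlus_four).conj_mem _ (lSim_proper _ _) _

theorem triples_proper (t : triples F) :
    t.1.1 ∈ properSim (hE4 (F := F)) ∧ t.1.2.1 ∈ properSim (hE4 (F := F)) := by
  have hle : triples F ≤ (properSim (hE4 (F := F))).prod ((properSim (hE4 (F := F))).prod ⊤) := by
    rw [triples, Subgroup.closure_le]
    rintro t ⟨u, hu, h | h | h⟩ <;> subst h
    · exact ⟨bSim_proper u hu, lSim_proper u hu, trivial⟩
    · exact ⟨lSim_proper u hu, bSim_proper u hu, trivial⟩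
    · exact ⟨rSim_proper u hu, rSim_proper _ _, trivial⟩
  exact ⟨(hle t.2).1, (hle t.2).2.1⟩

theorem proper_mem_range {g : Sim F} (hg : g ∈ properSim (hE4 (F := F))) :
    act g ∈ (act₀ F).range := by
  have hc := (isSemiSim g).ne_zero
  have hv : qPlus 4 F (scaleElt (simMult g)) ≠ 0 := by rw [qPlus_scaleElt]; exact hc
  set L := lSim (scaleElt (simMult g)) hv
  have hL : act L ∈ (act₀ F).range :=
    ⟨⟨(L, bSim _ hv, lSim _ (conj_ne hv)), Subgroup.subset_closure ⟨_, hv, Or.inr (Or.inl rfl)⟩⟩, rfl⟩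
  have hh : L⁻¹ * g ∈ properSim (hE4 (F := F)) := mul_mem (inv_mem (lSim_proper _ hv)) hg
  let k : orth (qPlus 4 F) := ⟨linSimEquiv (⟨L⁻¹ * g, hh.1⟩ : linSim (qPlus 4 F)), fun x => by
    have h1 : qPlus 4 F (app g x) = simMult g * qPlus 4 F x := linSim_app _ ⟨g, hg.1⟩ x
    have h2 : qPlus 4 F (app g x) = simMult g * qPlus 4 F (app (L⁻¹ * g) x) := by
      conv_lhs => rw [← mul_inv_cancel_left L g, app_mul]
      rw [app_lSim, qPlus_mul, qPlus_scaleElt]
    exact mul_left_cancel₀ hc (h2.symm.trans h1)⟩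
  have hk : orthToSim (qPlus 4 F) k = L⁻¹ * g := sim_ext fun x => rfl
  have := orth_mem_range ((orthToSim_mem_properSim_iff hE4 k).1 (hk ▸ hh))
  rw [hk, map_mul, map_inv] at this
  simpa using mul_mem hL this

theorem properImage_four_normal :
    (properImage (coe_qPlus 4) (hE4 (F := F))).Normal := by
  set D := (properSim (hE4 (F := F))).map act
  have htau : ∀ z ∈ D, tau * z * tau⁻¹ ∈ D := by
    rintro _ ⟨g, hg, rfl⟩
    obtain ⟨t, ht⟩ := proper_mem_range hg
    rw [← ht, act₀_apply, tau_conj]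
    exact ⟨_, (triples_proper t).2, rfl⟩
  have hact : ∀ (h : Sim F), ∀ z ∈ D, act h * z * (act h)⁻¹ ∈ D := by
    rintro h _ ⟨g, hg, rfl⟩
    exact ⟨h * g * h⁻¹, (properSim_normal hE4 formHyp_qPlus_four).conj_mem _ hg h, by
      rw [map_mul, map_mul, map_inv]⟩
  have hρ : ∀ (i : ℕ), ∀ z ∈ D, (tau * rho) ^ i * z * ((tau * rho : MulAut (X F)) ^ i)⁻¹ ∈ D := by
    intro i
    induction i with
    | zero => intro z hz; simpa using hz
    | succ i ih =>
      intro z hz
      have := htau _ (hact cSim _ (ih z hz))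
      rw [show act (cSim : Sim F) = rho from rfl] at this
      rw [pow_succ']
      simpa [mul_assoc] using this
  have hD : D.Normal := ⟨fun z hz α => by
    obtain ⟨i, g, rfl⟩ := exists_pow_mul_act α
    simpa [mul_assoc] using hρ i _ (hact g z hz)⟩
  have := hD.map (MulAut.congr (H5.pomegaEquiv (qPlus 4 F) (coe_qPlus 4))).symm.toMonoidHom
    (MulAut.congr (H5.pomegaEquiv (qPlus 4 F) (coe_qPlus 4))).symm.surjective
  rwa [Subgroup.map_map] at this

end Oct

/-- The inner diagonal group is normal for every `m ≥ 4`. -/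
theorem properImage_plus_normal {m : ℕ} (hm : 4 ≤ m) :
    (properImage (coe_qPlus m) (evenForm_qPlus (F := F) (show 3 ≤ m by omega))).Normal := by
  rcases eq_or_lt_of_le hm with h | h
  · subst h; exact Oct.properImage_four_normal
  · exact properImage_normal _ (autHyp_qPlus' h) _

end Cfsg.Agent.H4
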